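import Mathlib
import Cfsg.Agent.Lib.Sporadic.Co1Cent.Roots

/-!
# Finite checks on the `E₈` root system
-/

set_option autoImplicit false

namespace Cfsg.Agent.Lib.Sporadic.Co1Cent.Checks

open Cfsg Cfsg.Agent.Lib.Sporadic.GolayCore Cfsg.Agent.Lib.Sporadic.LeechBasic
  Cfsg.Agent.Lib.Sporadic.LeechNorm Cfsg.Agent.Lib.Sporadic.LeechFacts
  Cfsg.Agent.Lib.Sporadic.LeechAut Cfsg.Agent.Lib.Sporadic.LeechMat
  Cfsg.Agent.Lib.Sporadic.LeechKey Cfsg.Agent.Lib.Sporadic.M24Chain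
  Cfsg.Agent.Lib.Sporadic.Co2Cent.Roots Cfsg.Agent.Lib.Sporadic.Co1Cent.Roots

theorem rtA_length : rtA.length = 240 := by decide +kernel

theorem rtA_nodup : rtA.Nodup := by decide +kernel

theorem rtA_lattice : ∀ a ∈ rtA, inLattice (to24 a) = true := by decide +kernel

theorem vec8_memA {a : List ℤ} (ha : a ∈ rtA) : vec8 a ∈ leechLattice :=
  inLattice_sound (rtA_lattice a ha)

theorem rtA_norm : ∀ a ∈ rtA, dot8 a a = 32 := by decide +kernel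

theorem bsA_mem : bA 0 ∈ rtA ∧ bA 1 ∈ rtA ∧ bA 2 ∈ rtA ∧ bA 3 ∈ rtA ∧ bA 4 ∈ rtA ∧ bA 5 ∈ rtA ∧ bA 6 ∈ rtA ∧ bA 7 ∈ rtA := by
  decide +kernel

end Cfsg.Agent.Lib.Sporadic.Co1Cent.Checks
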