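import Mathlib
import Cfsg.Agent.Lib.Sporadic.Co1Cent.Roots

/-!
# Finite checks on the `E₈` root system
-/

set_option autoImplicit false

namespace Cfsg.Agent.Lib.Sporadic.Co1Cent.Checks

open Cfsg Cfsg.Agent.Lib.Sporadic.GolayCore Cfsg.Agent.Lib.Sporadic.LeechBasic
  Cfsg.Agent.Lib.Sporadic.LeechNorm Cfsg.Agent.Lib.Sporadic.LeechFacts
  Cfsg.Agent.Lib.Sporadic.LeechAut Cfsg.Agent.Lib.Sporadic.LeechMat
  Cfsg.Agent.Lib.Sporadic.LeechKey Cfsg.Agent.Lib.Sporadic.M24Chain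
  Cfsg.Agent.Lib.Sporadic.Co2Cent.Roots Cfsg.Agent.Lib.Sporadic.Co1Cent.Roots

/-- The span identity. -/
theorem star_check : ∀ a ∈ rtA, ∀ b ∈ rtA, (d16 a b - (
    d16 a (bA 4) * d16 b (bA 0) + d16 a (bA 5) * d16 b (bA 1) + d16 a (bA 6) * d16 b (bA 2) +
    d16 a (bA 7) * d16 b (bA 3) + d16 a (bA 0) * d16 b (bA 4) + d16 a (bA 1) * d16 b (bA 5) +
    d16 a (bA 2) * d16 b (bA 6) + d16 a (bA 3) * d16 b (bA 7))) % 2 = 0 := by decide +kernel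

end Cfsg.Agent.Lib.Sporadic.Co1Cent.Checks
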