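import Mathlib
import Cfsg.Agent.Lib.Sporadic.Co1Cent.Roots

/-!
# Finite checks on the `E₈` root system
-/

set_option autoImplicit false

namespace Cfsg.Agent.Lib.Sporadic.Co1Cent.Checks

open Cfsg Cfsg.Agent.Lib.Sporadic.GolayCore Cfsg.Agent.Lib.Sporadic.LeechBasic
  Cfsg.Agent.Lib.Sporadic.LeechNorm Cfsg.Agent.Lib.Sporadic.LeechFacts
  Cfsg.Agent.Lib.Sporadic.LeechAut Cfsg.Agent.Lib.Sporadic.LeechMat
  Cfsg.Agent.Lib.Sporadic.LeechKey Cfsg.Agent.Lib.Sporadic.M24Chain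
  Cfsg.Agent.Lib.Sporadic.Co2Cent.Roots Cfsg.Agent.Lib.Sporadic.Co1Cent.Roots

/-- Two roots with the same coordinates differ by a sign. -/
theorem class_check : ∀ a ∈ rtA, ∀ b ∈ rtA,
    ((d16 a (bA 0) - d16 b (bA 0)) % 2 = 0 ∧ (d16 a (bA 1) - d16 b (bA 1)) % 2 = 0 ∧
     (d16 a (bA 2) - d16 b (bA 2)) % 2 = 0 ∧ (d16 a (bA 3) - d16 b (bA 3)) % 2 = 0 ∧
     (d16 a (bA 4) - d16 b (bA 4)) % 2 = 0 ∧ (d16 a (bA 5) - d16 b (bA 5)) % 2 = 0 ∧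
     (d16 a (bA 6) - d16 b (bA 6)) % 2 = 0 ∧ (d16 a (bA 7) - d16 b (bA 7)) % 2 = 0) →
    a = b ∨ a = b.map Neg.neg := by decide +kernel

end Cfsg.Agent.Lib.Sporadic.Co1Cent.Checks
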