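import Mathlib
import Cfsg.Agent.Lib.Sporadic.Co1Cent.Roots

/-!
# Finite checks on the `E₈` root system
-/

set_option autoImplicit false

namespace Cfsg.Agent.Lib.Sporadic.Co1Cent.Checks

open Cfsg Cfsg.Agent.Lib.Sporadic.GolayCore Cfsg.Agent.Lib.Sporadic.LeechBasic
  Cfsg.Agent.Lib.Sporadic.LeechNorm Cfsg.Agent.Lib.Sporadic.LeechFacts
  Cfsg.Agent.Lib.Sporadic.LeechAut Cfsg.Agent.Lib.Sporadic.LeechMat
  Cfsg.Agent.Lib.Sporadic.LeechKey Cfsg.Agent.Lib.Sporadic.M24Chain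
  Cfsg.Agent.Lib.Sporadic.Co2Cent.Roots Cfsg.Agent.Lib.Sporadic.Co1Cent.Roots

/-- Connectivity of the non-orthogonality graph. -/
theorem conn_check : ∀ a ∈ rtA, dot8 a (bA 0) ≠ 0 ∨ ∃ c ∈ rtA, dot8 a c ≠ 0 ∧ dot8 c (bA 0) ≠ 0 := by
  decide +kernel

/-- The Gram matrix of the basis. -/
theorem gram_check : ∀ i, i < 8 → ∀ j, j < 8 →
    (d16 (bA i) (bA j)) % 2 = if i + 4 = j ∨ j + 4 = i then 1 else 0 := by decide +kernel

/-- The quadratic form in the coordinates takes the value `1` on the roots. -/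
theorem qr_check : ∀ a ∈ rtA, (d16 a (bA 0) * d16 a (bA 4) + d16 a (bA 1) * d16 a (bA 5) +
    d16 a (bA 2) * d16 a (bA 6) + d16 a (bA 3) * d16 a (bA 7) +
    (d16 a (bA 0) + d16 a (bA 1) + d16 a (bA 2) + d16 a (bA 3) +
      d16 a (bA 4) + d16 a (bA 5) + d16 a (bA 6) + d16 a (bA 7))) % 2 = 1 := by decide +kernel

end Cfsg.Agent.Lib.Sporadic.Co1Cent.Checks
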