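import Mathlib
import Cfsg.Agent.Lib.Sporadic.Co1Cent.Hom
import Cfsg.Agent.Lib.Sporadic.LeechLocal

/-!
# The kernel of the action of `C0` on the classes of roots: `P` and `-P`.
-/

set_option autoImplicit false

namespace Cfsg.Agent.Lib.Sporadic.Co1Cent.Ker

open Cfsg Cfsg.Agent.Lib.Sporadic.GolayCore Cfsg.Agent.Lib.Sporadic.LeechBasic
  Cfsg.Agent.Lib.Sporadic.LeechNorm Cfsg.Agent.Lib.Sporadic.LeechFacts
  Cfsg.Agent.Lib.Sporadic.LeechAut Cfsg.Agent.Lib.Sporadic.LeechMat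
  Cfsg.Agent.Lib.Sporadic.LeechKey Cfsg.Agent.Lib.Sporadic.M24Chain
  Cfsg.Agent.Lib.Sporadic.Co1Cent.Roots Cfsg.Agent.Lib.Sporadic.Co1Cent.Hom
open Cfsg.Agent.Lib.Sporadic.Co2Cent.Roots (V vec8 to24 dot8 d16 co8 SupO dotInt_vec8 sqNorm_vec8 vec8_co8 supO_vec8)
open Cfsg.Agent.Lib.Sporadic.Co2Cent.Hom (bet bet_smul bet_comm bet_smul_left tO tO_fix_iff zcast_of_mod cast_mod_two uL vecU_eq)
open Cfsg.Agent.Lib.Sporadic.Co2Cent.PGrp (P P_fix)
open Cfsg.Agent.Lib.Sporadic.Co2Cent.Ker (vec8_neg dotInt_zsmul sign_transfer)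
open Cfsg.Agent.Lib.Sporadic.LeechLocal (negCo0_mul_smul)

/-- A root with the same coordinates is the root up to sign. -/
theorem eq_or_neg8 {x y : leechLattice} (hx : Rt x) (hy : Rt y) (h : cv8 x = cv8 y) :
    x = y ∨ x = - y := by
  obtain ⟨a, ha, rfl⟩ := rt_form hx
  obtain ⟨b, hb, rfl⟩ := rt_form hy
  have key : ∀ k : I8, (d16 a (bA (ix8 k)) - d16 b (bA (ix8 k))) % 2 = 0 := by
    intro k
    have h1 := congrFun h k.swap
    simp only [cv8, Sum.swap_swap, bv8, bet_rvA] at h1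
    rw [ZMod.intCast_eq_intCast_iff] at h1
    have h2 : ((d16 a (bA (ix8 k)) : ℤ)) % ((2 : ℕ) : ℤ) = (d16 b (bA (ix8 k))) % ((2 : ℕ) : ℤ) := h1
    push_cast at h2
    omega
  have := Cfsg.Agent.Lib.Sporadic.Co1Cent.Checks.class_check a ha b hb
    ⟨key (.inl 0), key (.inl 1), key (.inl 2), key (.inl 3), key (.inr 0), key (.inr 1), key (.inr 2), key (.inr 3)⟩
  rcases this with rfl | h3
  · left; rfl
  · right
    apply Subtype.ext
    show vec8 a = - vec8 b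
    rw [h3, vec8_neg]

section ker

variable {g : Co0} (hg : g ∈ C0) (hM : MatR g = 1)

include hg hM

theorem cv_fix8 {x : leechLattice} (hx : Rt x) : cv8 (g • x) = cv8 x := by
  rw [← MatR_mulVec hg hx, hM, Matrix.one_mulVec]

theorem sign_or8 {x : leechLattice} (hx : Rt x) : ∃ s : ℤ, (s = 1 ∨ s = -1) ∧ g • x = s • x := by
  rcases eq_or_neg8 (rt_smul hg hx) hx (cv_fix8 hg hM hx) with h | h
  · exact ⟨1, Or.inl rfl, by rw [one_smul]; exact h⟩
  · exact ⟨-1, Or.inr rfl, by rw [h, neg_smul, one_smul]⟩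

/-- The sign is uniform. -/
theorem uniform8 : ∃ s : ℤ, (s = 1 ∨ s = -1) ∧ ∀ x, Rt x → g • x = s • x := by
  obtain ⟨s, hs, h0⟩ := sign_or8 hg hM (rt_bv8 (.inl 0))
  refine ⟨s, hs, fun x hx => ?_⟩
  obtain ⟨a, ha, rfl⟩ := rt_form hx
  obtain ⟨s1, hs1, h1⟩ := sign_or8 hg hM hx
  have key : ∀ {b c : List ℤ} (hb : b ∈ rtA) (hc : c ∈ rtA) {s2 s3 : ℤ}, (s2 = 1 ∨ s2 = -1) → (s3 = 1 ∨ s3 = -1) →
      g • rvA b hb = s2 • rvA b hb → g • rvA c hc = s3 • rvA c hc → dot8 b c ≠ 0 → s2 = s3 := by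
    intro b c hb hc s2 s3 h2 h3 h4 h5 h6
    refine sign_transfer h2 h3 h4 h5 ?_
    show dotInt (vec8 b) (vec8 c) ≠ 0
    rw [dotInt_vec8]
    exact h6
  have h0' : g • rvA (bA 0) (bsA_mem' 0 (by norm_num)) = s • rvA (bA 0) (bsA_mem' 0 (by norm_num)) := h0
  rcases Cfsg.Agent.Lib.Sporadic.Co1Cent.Checks.conn_check a ha with h2 | ⟨c, hc, h2, h3⟩
  · rw [key ha (bsA_mem' 0 (by norm_num)) hs1 hs h1 h0' h2] at h1
    exact h1
  · obtain ⟨s2, hs2, h4⟩ := sign_or8 hg hM (rt_rvA hc)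
    have h5 := key hc (bsA_mem' 0 (by norm_num)) hs2 hs h4 h0' h3
    have h6 := key ha hc hs1 hs2 h1 h4 h2
    rw [h6, h5] at h1
    exact h1

end ker

/-- The frame vectors of the octad are sums of two roots. -/
theorem u8_sum : ∀ k ∈ [23, 0, 1, 2, 3, 5, 14, 17], ∃ a, ∃ ha : a ∈ rtA, ∃ b, ∃ hb : b ∈ rtA,
    u8 (pt k) = rvA a ha + rvA b hb := by
  have key : ∀ (k : ℕ) (a b : List ℤ) (ha : a ∈ rtA) (hb : b ∈ rtA),
      (∀ q, (Pi.single (pt k) 8 : V) q = vec8 a q + vec8 b q) →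
      ∃ a, ∃ ha : a ∈ rtA, ∃ b, ∃ hb : b ∈ rtA, u8 (pt k) = rvA a ha + rvA b hb := by
    intro k a b ha hb h
    exact ⟨a, ha, b, hb, Subtype.ext (funext h)⟩
  intro k hk
  simp only [List.mem_cons, List.not_mem_nil, or_false] at hk
  rcases hk with rfl | rfl | rfl | rfl | rfl | rfl | rfl | rfl
  · exact key 23 [4, 4, 0, 0, 0, 0, 0, 0] [4, -4, 0, 0, 0, 0, 0, 0] (by decide +kernel) (by decide +kernel) (by decide +kernel)
  · exact key 0 [4, 4, 0, 0, 0, 0, 0, 0] [-4, 4, 0, 0, 0, 0, 0, 0] (by decide +kernel) (by decide +kernel) (by decide +kernel)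
  · exact key 1 [0, 0, 4, 4, 0, 0, 0, 0] [0, 0, 4, -4, 0, 0, 0, 0] (by decide +kernel) (by decide +kernel) (by decide +kernel)
  · exact key 2 [0, 0, 4, 4, 0, 0, 0, 0] [0, 0, -4, 4, 0, 0, 0, 0] (by decide +kernel) (by decide +kernel) (by decide +kernel)
  · exact key 3 [0, 0, 0, 0, 4, 4, 0, 0] [0, 0, 0, 0, 4, -4, 0, 0] (by decide +kernel) (by decide +kernel) (by decide +kernel)
  · exact key 5 [0, 0, 0, 0, 4, 4, 0, 0] [0, 0, 0, 0, -4, 4, 0, 0] (by decide +kernel) (by decide +kernel) (by decide +kernel)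
  · exact key 14 [0, 0, 0, 0, 0, 0, 4, 4] [0, 0, 0, 0, 0, 0, 4, -4] (by decide +kernel) (by decide +kernel) (by decide +kernel)
  · exact key 17 [0, 0, 0, 0, 0, 0, 4, 4] [0, 0, 0, 0, 0, 0, -4, 4] (by decide +kernel) (by decide +kernel) (by decide +kernel)

/-- An element fixing all the roots lies in `P`. -/
theorem P_of_fix {g : Co0} (h : ∀ x, Rt x → g • x = x) : g ∈ P := by
  intro p hp
  obtain ⟨f, hf, rfl⟩ := List.mem_map.1 (Cfsg.Agent.Lib.Sporadic.M24Act.octad0_pts p hp)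
  have hf' : f ∈ [23, 0, 1, 2, 3, 5, 14, 17] := by
    revert f; simp
  obtain ⟨a, ha, b, hb, e⟩ := u8_sum f hf'
  rw [e, co0_map_add, h _ (rt_rvA ha), h _ (rt_rvA hb)]

/-- The kernel: `P` or `-P`. -/
theorem mem_P_of_MatR {g : Co0} (hg : g ∈ C0) (hM : MatR g = 1) : g ∈ P ∨ negCo0 * g ∈ P := by
  obtain ⟨s, hs, h⟩ := uniform8 hg hM
  rcases hs with rfl | rfl
  · left
    exact P_of_fix fun x hx => by rw [h x hx, one_smul]
  · right
    apply P_of_fix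
    intro x hx
    rw [negCo0_mul_smul, h x hx, neg_smul, one_smul, neg_neg]

theorem MatR_P {g : Co0} (hg : g ∈ P) : MatR g = 1 := by
  rw [← MatR_one]
  ext i j
  simp only [MatR, one_smul]
  rw [P_fix hg (rt_bv8 j).1]

theorem dvd_check : ∀ a ∈ rtA, ∀ b ∈ rtA, dot8 a b % 16 = 0 := by decide +kernel

/-- The central involution acts trivially on the classes. -/
theorem MatR_neg : MatR negCo0 = 1 := by
  rw [← MatR_one]
  ext i j
  simp only [MatR, one_smul]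
  obtain ⟨a, ha, h1⟩ := rt_form (rt_bv8 j)
  obtain ⟨b, hb, h2⟩ := rt_form (rt_bv8 i.swap)
  have h3 : negCo0 • bv8 j = - bv8 j := by
    apply Subtype.ext
    rw [coe_negCo0_smul]
    rfl
  rw [h3, h1, h2]
  unfold bet
  have h4 : dotInt ((-rvA a ha : leechLattice) : V) (rvA b hb : V) = - dotInt (rvA a ha : V) (rvA b hb : V) := by
    simp only [NegMemClass.coe_neg]
    rw [dotInt_comm, dotInt_neg_right, dotInt_comm]
  rw [h4]
  have h5 : (16 : ℤ) ∣ dotInt (rvA a ha : V) (rvA b hb : V) := by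
    show (16 : ℤ) ∣ dotInt (vec8 a) (vec8 b)
    rw [dotInt_vec8]
    exact Int.dvd_of_emod_eq_zero (dvd_check a ha b hb)
  rw [Int.neg_ediv_of_dvd h5]
  push_cast
  exact ZMod.neg_eq_self_mod_two _

/-- Lattice vector of the root `u`. -/
theorem rt_U : Rt Spor.leechU := by
  have h : ((Spor.leechU : leechLattice) : V) = vec8 uL := vecU_eq
  refine ⟨?_, ?_⟩
  · rw [h]
    exact supO_vec8 _
  · rw [h, sqNorm_vec8]
    decide +kernel

end Cfsg.Agent.Lib.Sporadic.Co1Cent.Ker
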