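import Mathlib
import Cfsg.Agent.Lib.Sporadic.Co1Cent.Ker

/-!
# The order of the centraliser `C0`

`C0` is transitive on the `240` roots and the stabiliser of a root is the group `CC`, whose order is known.
-/

set_option autoImplicit false

namespace Cfsg.Agent.Lib.Sporadic.Co1Cent.Trans

open Cfsg Cfsg.Agent.Lib.Sporadic.GolayCore Cfsg.Agent.Lib.Sporadic.LeechBasic
  Cfsg.Agent.Lib.Sporadic.LeechNorm Cfsg.Agent.Lib.Sporadic.LeechFacts
  Cfsg.Agent.Lib.Sporadic.LeechAut Cfsg.Agent.Lib.Sporadic.LeechMat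
  Cfsg.Agent.Lib.Sporadic.LeechKey Cfsg.Agent.Lib.Sporadic.M24Chain
  Cfsg.Agent.Lib.Sporadic.Co1Cent.Roots Cfsg.Agent.Lib.Sporadic.Co1Cent.Hom
  Cfsg.Agent.Lib.Sporadic.Co1Cent.Ker Cfsg.Agent.Lib.Sporadic.LeechMonomial
open Cfsg.Agent.Lib.Sporadic.Co2Cent.Roots (V vec8 to24 dot8 d16 co8 SupO dotInt_vec8 sqNorm_vec8 vec8_co8 supO_vec8)
open Cfsg.Agent.Lib.Sporadic.Co2Cent.Hom (bet tO tO_fix_iff uL vecU_eq CC mem_CC psi)
open Cfsg.Agent.Lib.Sporadic.Co2Cent.PGrp (P P_fix card_P P_le_CC card_of_rel)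
open Cfsg.Agent.Lib.Sporadic.Co2Cent.Ker (mem_ker_psi)
open Cfsg.Agent.Lib.Sporadic.Co2Cent.Surj (psi_surj gX gX_mem acts_gX acts_tO e24 u8_coe tgI cFm)
open Cfsg.Agent.Lib.Sporadic.LeechMin (xiMat)

/-- A criterion for membership in `C0`. -/
theorem mem_C0_of_acts {g : Co0} {f : List ℤ → List ℤ} (h : Acts g f)
    (hc : (List.range 24).all (fun i => f (signL Cfsg.Agent.Lib.Sporadic.Co2Cent.Hom.ocM (e24 i)) ==
      signL Cfsg.Agent.Lib.Sporadic.Co2Cent.Hom.ocM (f (e24 i))) = true) : g ∈ C0 := by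
  rw [mem_C0]
  apply co0_ext_u8
  intro p
  apply Subtype.ext
  have h1 := Cfsg.Agent.Lib.Sporadic.Co2Cent.Surj.Acts.coe (h.comp acts_tO) (u8 p) _ (u8_coe p)
  have h2 := Cfsg.Agent.Lib.Sporadic.Co2Cent.Surj.Acts.coe (acts_tO.comp h) (u8 p) _ (u8_coe p)
  rw [h1, h2]
  have h3 := List.all_eq_true.1 hc _ (List.mem_range.2 (idx_lt p))
  rw [beq_iff_eq] at h3
  rw [h3]

/-! ### Permutations stabilising the octad -/

def pT0 : List ℕ := [1,17,5,2,20,0,22,8,21,4,18,6,15,9,3,16,19,14,10,13,11,12,7,23]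
def pI0 : List ℕ := [5,0,3,14,9,2,11,22,7,13,18,20,21,19,17,12,15,1,10,16,4,8,6,23]
def pT1 : List ℕ := [1,23,2,0,10,5,19,9,4,7,20,6,15,11,17,22,16,14,18,13,8,12,21,3]
def pI1 : List ℕ := [3,0,2,23,8,5,11,9,20,7,4,13,21,19,17,12,16,14,18,6,10,22,15,1]
def pT2 : List ℕ := [1,23,17,0,16,14,6,21,22,9,20,12,8,18,3,7,11,2,13,10,19,15,4,5]
def pI2 : List ℕ := [3,0,17,14,22,23,6,15,12,9,19,16,11,18,5,21,4,2,13,20,10,7,8,1]
def pT3 : List ℕ := [2,14,23,1,13,17,12,15,16,22,21,10,8,9,5,20,18,3,7,19,11,4,6,0]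
def pI3 : List ℕ := [23,3,0,17,21,14,22,18,12,13,11,20,6,4,1,7,8,5,16,19,15,10,9,2]

theorem pT0_ok : goodT pT0 = true := by decide +kernel
theorem pT1_ok : goodT pT1 = true := by decide +kernel
theorem pT2_ok : goodT pT2 = true := by decide +kernel
theorem pT3_ok : goodT pT3 = true := by decide +kernel

/-- Permutations. -/
noncomputable def gQ0 : Co0 := permCo0 (gPerm pT0 pT0_ok) (gPerm_mem pT0_ok)
/-- Permutations. -/
noncomputable def gQ1 : Co0 := permCo0 (gPerm pT1 pT1_ok) (gPerm_mem pT1_ok)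
/-- Permutations. -/
noncomputable def gQ2 : Co0 := permCo0 (gPerm pT2 pT2_ok) (gPerm_mem pT2_ok)
/-- Permutations. -/
noncomputable def gQ3 : Co0 := permCo0 (gPerm pT3 pT3_ok) (gPerm_mem pT3_ok)

theorem acts_gQ0 : Acts gQ0 (permL pI0) := acts_perm pT0_ok (by decide +kernel)
theorem acts_gQ1 : Acts gQ1 (permL pI1) := acts_perm pT1_ok (by decide +kernel)
theorem acts_gQ2 : Acts gQ2 (permL pI2) := acts_perm pT2_ok (by decide +kernel)
theorem acts_gQ3 : Acts gQ3 (permL pI3) := acts_perm pT3_ok (by decide +kernel)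

theorem gQ0_mem : gQ0 ∈ C0 := mem_C0_of_acts acts_gQ0 (by decide +kernel)
theorem gQ1_mem : gQ1 ∈ C0 := mem_C0_of_acts acts_gQ1 (by decide +kernel)
theorem gQ2_mem : gQ2 ∈ C0 := mem_C0_of_acts acts_gQ2 (by decide +kernel)
theorem gQ3_mem : gQ3 ∈ C0 := mem_C0_of_acts acts_gQ3 (by decide +kernel)

theorem gX_mem0 : gX ∈ C0 := mem_C0.2 (mem_CC.1 gX_mem).2

/-! ### The chain -/

/-- The action of the generators. -/
def genF : ℕ → List ℤ → List ℤ
  | 0 => fun l => signL cFm (permL tgI (matL xiMat 2 l))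
  | 1 => permL pI0
  | 2 => permL pI1
  | 3 => permL pI2
  | _ => permL pI3

/-- The generators. -/
noncomputable def genG : ℕ → Co0
  | 0 => gX
  | 1 => gQ0
  | 2 => gQ1
  | 3 => gQ2
  | _ => gQ3

theorem genG_mem : ∀ n, genG n ∈ C0
  | 0 => gX_mem0
  | 1 => gQ0_mem
  | 2 => gQ1_mem
  | 3 => gQ2_mem
  | _ + 4 => gQ3_mem

theorem genG_acts : ∀ n, Acts (genG n) (genF n)
  | 0 => acts_gX
  | 1 => acts_gQ0
  | 2 => acts_gQ1
  | 3 => acts_gQ2
  | _ + 4 => acts_gQ3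

/-- The parents in the spanning tree. -/
def parents : List (ℕ × ℕ) := [(0,1),(0,2),(0,3),(0,4),(1,0),(1,1),(1,2),(1,3),(1,4),(2,0),(2,1),(2,4),(3,0),(3,3),(3,4),(4,0),(4,2),(4,3),(4,4),(5,0),(5,4),(6,0),(6,2),(6,3),(6,4),(7,0),(7,3),(7,4),(8,0),(8,2),(8,3),(9,0),(10,0),(10,1),(10,2),(10,3),(10,4),(11,0),(11,2),(12,0),(12,1),(13,0),(13,1),(13,2),(13,3),(13,4),(14,0),(15,0),(16,0),(16,1),(16,2),(16,3),(16,4),(17,0),(17,1),(18,0),(20,0),(20,1),(20,2),(20,3),(21,0),(22,0),(22,1),(22,2),(22,3),(22,4),(23,0),(25,0),(26,0),(26,1),(26,3),(27,0),(28,0),(29,0),(32,1),(32,2),(32,4),(33,0),(33,1),(33,2),(33,3),(34,0),(34,2),(34,3),(34,4),(35,0),(35,1),(35,3),(35,4),(36,0),(36,3),(36,4),(37,0),(37,1),(37,4),(38,0),(38,1),(38,2),(38,4),(39,0),(40,0),(40,1),(40,3),(41,0),(42,0),(42,1),(42,2),(42,3),(43,2),(43,4),(45,0),(45,4),(46,2),(46,4),(48,0),(48,1),(48,3),(49,0),(49,3),(50,1),(50,2),(50,4),(51,4),(53,0),(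53,1),(53,2),(54,0),(54,1),(54,4),(56,0),(56,1),(56,4),(57,0),(57,2),(57,3),(57,4),(58,4),(59,0),(59,1),(59,4),(60,0),(60,4),(61,1),(61,3),(61,4),(62,2),(62,3),(62,4),(64,0),(64,2),(65,0),(67,1),(67,4),(70,0),(70,1),(72,3),(73,0),(73,2),(76,4),(77,3),(77,4),(78,3),(79,4),(81,0),(81,1),(82,1),(82,2),(82,3),(82,4),(83,3),(84,0),(84,4),(85,3),(86,0),(87,0),(87,3),(88,0),(88,2),(90,1),(90,2),(90,3),(90,4),(91,3),(94,1),(97,3),(97,4),(98,0),(99,4),(102,1),(106,3),(111,4),(118,4),(120,2),(122,0),(122,2),(122,3),(126,0),(127,0),(129,4),(130,1),(130,2),(130,4),(137,0),(137,3),(138,1),(138,4),(141,0),(142,0),(148,0),(149,1),(149,2),(149,4),(163,0),(166,1),(166,2),(167,1),(167,3),(168,0),(168,3),(169,0),(172,0),(174,1),(175,1),(175,3),(176,0),(179,1),(180,1),(181,0),(187,4),(188,0),(194,3),(197,0),(208,0),(208,1),(208,3),(210,1),(216,0),(225,1),(235,0)]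

theorem chain_check : ∀ c ∈ List.range 239, (parents.getD c (0, 0)).1 < c + 1 ∧
    genF (parents.getD c (0, 0)).2 (to24 (rtA.getD (parents.getD c (0, 0)).1 [])) = to24 (rtA.getD (c + 1) []) := by
  decide +kernel

theorem rt0_eq : rtA.getD 0 [] = uL := by decide +kernel

/-- Every root in the list is in the orbit. -/
theorem reach (c : ℕ) (hc : c < 240) :
    ∃ g ∈ C0, ((g • Spor.leechU : leechLattice) : V) = vec8 (rtA.getD c []) := by
  induction c using Nat.strong_induction_on with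
  | _ c ih =>
    rcases Nat.eq_zero_or_pos c with rfl | hpos
    · refine ⟨1, C0.one_mem, ?_⟩
      rw [one_smul, rt0_eq]
      exact vecU_eq
    · obtain ⟨d, rfl⟩ : ∃ d, c = d + 1 := ⟨c - 1, by omega⟩
      obtain ⟨h1, h2⟩ := chain_check d (List.mem_range.2 (by omega))
      obtain ⟨g, hg, e⟩ := ih _ h1 (by omega)
      refine ⟨genG (parents.getD d (0, 0)).2 * g, C0.mul_mem (genG_mem _) hg, ?_⟩
      rw [mul_smul]
      have h3 := Cfsg.Agent.Lib.Sporadic.Co2Cent.Surj.Acts.coe (genG_acts (parents.getD d (0, 0)).2)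
        (g • Spor.leechU) _ e
      rw [h3, h2]
      rfl

theorem reach_rt {x : leechLattice} (hx : Rt x) : ∃ g ∈ C0, g • Spor.leechU = x := by
  obtain ⟨a, ha, rfl⟩ := rt_form hx
  obtain ⟨c, hc, rfl⟩ := List.getElem_of_mem ha
  have hc' : c < 240 := by rw [← Cfsg.Agent.Lib.Sporadic.Co1Cent.Checks.rtA_length]; exact hc
  obtain ⟨g, hg, e⟩ := reach c hc'
  refine ⟨g, hg, Subtype.ext ?_⟩
  rw [e, List.getD_eq_getElem _ _ hc]
  rfl

/-! ### The count -/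

theorem dot_inj : ∀ a ∈ rtA, ∀ b ∈ rtA, dot8 a b = 32 → a = b := by decide +kernel

theorem vec8_inj {a b : List ℤ} (ha : a ∈ rtA) (hb : b ∈ rtA) (h : vec8 a = vec8 b) : a = b := by
  apply dot_inj a ha b hb
  rw [← dotInt_vec8, ← h, dotInt_vec8]
  exact Cfsg.Agent.Lib.Sporadic.Co1Cent.Checks.rtA_norm a ha

/-- The number of roots. -/
theorem card_rt : Nat.card {x : leechLattice // Rt x} = 240 := by
  rw [card_of_rel rtA.toFinset (fun (x : {x : leechLattice // Rt x}) (a : List ℤ) => (x.1 : V) = vec8 a)]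
  · rw [List.toFinset_card_of_nodup Cfsg.Agent.Lib.Sporadic.Co1Cent.Checks.rtA_nodup,
      Cfsg.Agent.Lib.Sporadic.Co1Cent.Checks.rtA_length]
  · intro a ha
    have ha' := List.mem_toFinset.1 ha
    exact ⟨⟨rvA a ha', rt_rvA ha'⟩, rfl⟩
  · rintro ⟨x, hx⟩
    obtain ⟨a, ha, rfl⟩ := rt_form hx
    exact ⟨a, List.mem_toFinset.2 ha, rfl⟩
  · intro x a a' ha ha' h1 h2
    exact vec8_inj (List.mem_toFinset.1 ha) (List.mem_toFinset.1 ha') (h1.symm.trans h2)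
  · intro x x' a h1 h2
    exact Subtype.ext (Subtype.ext (h1.trans h2.symm))

instance finite_C0 : Finite C0 := inferInstance

/-- The orbit of the root `u` under `C0`. -/
theorem orbit_eq : MulAction.orbit C0 Spor.leechU = {x | Rt x} := by
  ext x
  constructor
  · rintro ⟨g, rfl⟩
    exact rt_smul g.2 rt_U
  · intro hx
    obtain ⟨g, hg, e⟩ := reach_rt hx
    exact ⟨⟨g, hg⟩, e⟩

/-- The stabiliser in `C0` of the root is the group `CC`. -/
def stabEquiv : MulAction.stabilizer C0 Spor.leechU ≃ CC where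
  toFun x := ⟨x.1.1, mem_CC.2 ⟨x.2, mem_C0.1 x.1.2⟩⟩
  invFun g := ⟨⟨g.1, mem_C0.2 (mem_CC.1 g.2).2⟩, (mem_CC.1 g.2).1⟩
  left_inv x := rfl
  right_inv g := rfl

/-- The order of `CC`. -/
theorem card_CC : Nat.card CC = 2 ^ 9 * 1451520 := by
  have h1 := Subgroup.card_mul_index (psi.ker)
  rw [Subgroup.index_ker, MonoidHom.range_eq_top.2 psi_surj, Subgroup.card_top,
    Cfsg.Agent.Lib.Compute.Schur2.SpTwo.card_Sp6] at h1
  have h2 : Nat.card psi.ker = Nat.card P := Nat.card_congr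
    { toFun := fun g => ⟨g.1.1, mem_ker_psi.1 g.2⟩
      invFun := fun g => ⟨⟨g.1, P_le_CC g.2⟩, mem_ker_psi.2 g.2⟩
      left_inv := fun g => rfl
      right_inv := fun g => rfl }
  rw [h2, card_P] at h1
  exact h1.symm

/-- The order of `C0`. -/
theorem card_C0 : Nat.card C0 = 240 * (2 ^ 9 * 1451520) := by
  have h1 := Subgroup.card_mul_index (MulAction.stabilizer C0 Spor.leechU)
  rw [MulAction.index_stabilizer, orbit_eq, Nat.card_congr stabEquiv, card_CC] at h1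
  have h2 : ({x | Rt x} : Set leechLattice).ncard = 240 := by
    rw [← Nat.card_coe_set_eq]
    exact card_rt
  rw [h2] at h1
  rw [← h1]
  ring

end Cfsg.Agent.Lib.Sporadic.Co1Cent.Trans
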