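import Mathlib
import Cfsg.Agent.Lib.Sporadic.Co1Cent.Trans
import Cfsg.Agent.Lib.Sporadic.LeechLocal
import Cfsg.Agent.Lib.PresOm.OmCard
import Cfsg.Agent.Lib.Classical.Orth.Simple

/-!
# The centraliser of the involution `z = mkC tO` in `Co₁`

Every element of `Co₁` commuting with `z` lifts to `C0`, since `tO` and `-tO` are not conjugate.  The
homomorphism `psi8` descends to a surjection from the centraliser to `Ω⁺₈(2)` with kernel isomorphic to `P`.
-/

set_option autoImplicit false

namespace Cfsg.Agent.Lib.Sporadic.Co1Cent.Lift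

open Cfsg Cfsg.Agent.Lib.Sporadic.GolayCore Cfsg.Agent.Lib.Sporadic.LeechBasic
  Cfsg.Agent.Lib.Sporadic.LeechNorm Cfsg.Agent.Lib.Sporadic.LeechFacts
  Cfsg.Agent.Lib.Sporadic.LeechAut Cfsg.Agent.Lib.Sporadic.LeechMat
  Cfsg.Agent.Lib.Sporadic.LeechKey Cfsg.Agent.Lib.Sporadic.M24Chain
  Cfsg.Agent.Lib.Sporadic.Co1Cent.Roots Cfsg.Agent.Lib.Sporadic.Co1Cent.Hom
  Cfsg.Agent.Lib.Sporadic.Co1Cent.Ker Cfsg.Agent.Lib.Sporadic.Co1Cent.Trans
  Cfsg.Agent.Lib.Sporadic.LeechMonomial
open Cfsg.Agent.Lib.Sporadic.Co2Cent.Roots (V vec8 to24 dot8 d16 co8 SupO dotInt_vec8 dotInt_vecOf sqNorm_vec8 vec8_co8 supO_vec8 sqNorm_eq_dotInt O_pts)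
open Cfsg.Agent.Lib.Sporadic.Co2Cent.Hom (bet tO tO_fix_iff coe_tO_smul mem_oc ocM uL vecU_eq CC mem_CC psi)
open Cfsg.Agent.Lib.Sporadic.Co2Cent.PGrp (P P_fix card_P P_le_CC comm_tO tO_ne_one)
open Cfsg.Agent.Lib.Sporadic.Co1Cent.Checks (cL cL_lattice cL_zero cL_norm cL_eta cL_nodup cL_length)
open Cfsg.Agent.Lib.Sporadic.LeechLocal (mkC mkC_eq_one_iff mkC_neg negCo0_mul_smul)

theorem tO_sq : tO * tO = 1 := by
  apply Subtype.ext
  apply Equiv.ext
  intro v
  apply Subtype.ext
  exact signChange_signChange _ _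

theorem neg_sq : negCo0 * negCo0 = 1 := by
  apply co0_ext_u8
  intro i
  rw [negCo0_mul_smul, one_smul]
  rw [show negCo0 • u8 i = -u8 i from rfl]
  simp

theorem neg_comm (x : Co0) : x * negCo0 = negCo0 * x :=
  Subgroup.mem_center_iff.1 negCo0_mem_center x

/-! ### `tO` and `-tO` are not conjugate -/

/-- The lattice vector of a member of the list. -/
def cv (a : List ℤ) (ha : a ∈ cL) : leechLattice := ⟨vecOf a, inLattice_sound (cL_lattice a ha)⟩

theorem tO_cv {a : List ℤ} (ha : a ∈ cL) : tO • cv a ha = - cv a ha := by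
  apply Subtype.ext
  rw [coe_tO_smul]
  funext p
  simp only [signChange]
  show (if p ∈ ofMask ocM then - vecOf a p else vecOf a p) = - vecOf a p
  split_ifs with hp
  · rfl
  · have hp' : p ∈ ofMask octad0 := by
      by_contra h
      exact hp (mem_oc.2 h)
    obtain ⟨f, hf, rfl⟩ := List.mem_map.1 (Cfsg.Agent.Lib.Sporadic.M24Act.octad0_pts p hp')
    have hf' : f ∈ [23, 0, 1, 2, 3, 5, 14, 17] := by
      revert f; simp
    have h0 := cL_zero a ha f hf'
    have h1 : vecOf a (pt f) = a.getD f 0 := by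
      unfold vecOf
      rw [idx_pt (O_pts f hf').1]
    rw [h1, h0]
    simp

theorem sqNorm_cv {a : List ℤ} (ha : a ∈ cL) : sqNorm (cv a ha : V) = 32 := by
  rw [sqNorm_eq_dotInt]
  show dotInt (vecOf a) (vecOf a) = 32
  rw [dotInt_vecOf]
  exact cL_norm a ha

theorem cv_inj {a b : List ℤ} (ha : a ∈ cL) (hb : b ∈ cL) (h : vecOf a = vecOf b) : a = b := by
  rw [← cL_eta a ha, ← cL_eta b hb]
  apply List.map_congr_left
  intro i hi
  have hi' := List.mem_range.1 hi
  have h2 := congrFun h (pt i)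
  unfold vecOf at h2
  rwa [idx_pt hi'] at h2

theorem not_conj_neg {g : Co0} (h : g * tO = negCo0 * tO * g) : False := by
  classical
  have hfix : ∀ (a : List ℤ) (ha : a ∈ cL), Rt (g • cv a ha) := by
    intro a ha
    refine ⟨?_, ?_⟩
    · rw [← tO_fix_iff]
      have h1 : (g * tO) • cv a ha = (negCo0 * tO * g) • cv a ha := by rw [h]
      rw [mul_smul, tO_cv ha, co0_map_neg, mul_assoc, negCo0_mul_smul, mul_smul, neg_inj] at h1
      exact h1.symm
    · rw [co0_sqNorm]
      exact sqNorm_cv ha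
  let F : List ℤ → List ℤ := fun a => if ha : a ∈ cL then co8 (g • cv a ha : leechLattice) else []
  have hF : ∀ a (ha : a ∈ cL), F a = co8 (g • cv a ha : leechLattice) := by
    intro a ha
    simp only [F, dif_pos ha]
  have hmem : ∀ a ∈ cL, F a ∈ rtA := by
    intro a ha
    rw [hF a ha]
    exact Cfsg.Agent.Lib.Sporadic.Co1Cent.Checks.cls (g • cv a ha : leechLattice).2 (hfix a ha).1 (hfix a ha).2
  have hnd : (cL.map F).Nodup := by
    apply List.Nodup.map_on _ cL_nodup
    intro a ha b hb hab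
    rw [hF a ha, hF b hb] at hab
    have h1 := vec8_co8 (hfix a ha).1
    have h2 := vec8_co8 (hfix b hb).1
    rw [hab, h2] at h1
    have h3 : g • cv b hb = g • cv a ha := Subtype.ext h1
    have h4 := smul_left_cancel g h3
    exact cv_inj ha hb (congrArg Subtype.val h4).symm
  have hsub : (cL.map F).Subperm rtA := List.subperm_of_subset hnd (by
    intro x hx
    obtain ⟨a, ha, rfl⟩ := List.mem_map.1 hx
    exact hmem a ha)
  have hlen := hsub.length_le
  rw [List.length_map, cL_length, Cfsg.Agent.Lib.Sporadic.Co1Cent.Checks.rtA_length] at hlen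
  omega

/-! ### The centraliser -/

/-- The involution of `Co₁`. -/
noncomputable def zC : Spor.Co1 := mkC tO

/-- The centraliser of the involution. -/
abbrev HC : Subgroup Spor.Co1 := Subgroup.centralizer ({zC} : Set Spor.Co1)

theorem tO_ne_neg : tO ≠ negCo0 := by
  intro h
  have h1 : tO • Spor.leechU = Spor.leechU := (tO_fix_iff _).2 rt_U.1
  rw [h] at h1
  have h2 : negCo0 • Spor.leechU = - Spor.leechU := rfl
  rw [h2] at h1
  exact Cfsg.Agent.Lib.Sporadic.LeechLocal.neg_ne_self rt_U.2 h1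

theorem zC_ne_one : zC ≠ 1 := by
  intro h
  rcases (mkC_eq_one_iff _).1 h with h1 | h1
  · exact tO_ne_one h1
  · exact tO_ne_neg h1

theorem zC_sq : zC ^ 2 = 1 := by
  unfold zC
  rw [pow_two, ← map_mul, tO_sq, map_one]

theorem zC_order : orderOf zC = 2 := orderOf_eq_prime zC_sq zC_ne_one

/-- The projection of the centraliser of `tO`. -/
noncomputable def piC : C0 →* HC :=
  (mkC.comp C0.subtype).codRestrict HC (fun g => by
    rw [Subgroup.mem_centralizer_singleton_iff]
    show mkC g.1 * mkC tO = mkC tO * mkC g.1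
    rw [← map_mul, ← map_mul, mem_C0.1 g.2])

theorem coe_piC (g : C0) : ((piC g : HC) : Spor.Co1) = mkC g.1 := rfl

theorem piC_surj : Function.Surjective piC := by
  rintro ⟨x, hx⟩
  obtain ⟨g, rfl⟩ := QuotientGroup.mk'_surjective _ x
  have h1 : mkC g * mkC tO = mkC tO * mkC g := Subgroup.mem_centralizer_singleton_iff.1 hx
  have h2 : mkC (g * tO * (tO * g)⁻¹) = 1 := by
    rw [map_mul, map_inv, map_mul, map_mul, h1, mul_inv_cancel]
  have h3 : g ∈ C0 := by
    rcases (mkC_eq_one_iff _).1 h2 with h4 | h4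
    · exact mem_C0.2 (mul_inv_eq_one.1 h4)
    · exfalso
      apply not_conj_neg (g := g)
      rw [mul_assoc, ← h4]
      group
  exact ⟨⟨g, h3⟩, rfl⟩

theorem neg_mem_C0 : negCo0 ∈ C0 := mem_C0.2 (neg_comm _).symm

theorem piC_eq_one_iff {g : C0} : piC g = 1 ↔ g.1 = 1 ∨ g.1 = negCo0 := by
  rw [← mkC_eq_one_iff]
  constructor
  · intro h
    exact congrArg Subtype.val h
  · intro h
    exact Subtype.ext h

theorem psi8_neg : psi8 ⟨negCo0, neg_mem_C0⟩ = 1 := psi8_eq_one_iff.2 MatR_neg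

theorem ker_le : piC.ker ≤ psi8.ker := by
  intro g hg
  rw [MonoidHom.mem_ker] at hg ⊢
  rcases piC_eq_one_iff.1 hg with h | h
  · have : g = 1 := Subtype.ext h
    rw [this, map_one]
  · have : g = ⟨negCo0, neg_mem_C0⟩ := Subtype.ext h
    rw [this, psi8_neg]

/-- The homomorphism from the centraliser in `Co₁` to the isometry group. -/
noncomputable def psiO : HC →* isometryGroup (ZMod 2) (quadFormPlus 4 (ZMod 2)) :=
  (QuotientGroup.lift piC.ker psi8 (fun g hg => ker_le hg)).comp
    (QuotientGroup.quotientKerEquivOfSurjective piC piC_surj).symm.toMonoidHom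

theorem psiO_pi (g : C0) : psiO (piC g) = psi8 g := by
  unfold psiO
  simp only [MonoidHom.comp_apply]
  have h : (QuotientGroup.quotientKerEquivOfSurjective piC piC_surj).symm.toMonoidHom (piC g) =
      (QuotientGroup.mk g : C0 ⧸ piC.ker) := by
    show (QuotientGroup.quotientKerEquivOfSurjective piC piC_surj).symm (piC g) = _
    rw [MulEquiv.symm_apply_eq]
    rfl
  rw [h]
  rfl

/-! ### The kernel -/

theorem neg_not_mem_P : negCo0 ∉ P := by
  intro h
  have h1 := P_fix h rt_U.1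
  have h2 : negCo0 • Spor.leechU = - Spor.leechU := rfl
  rw [h2] at h1
  exact Cfsg.Agent.Lib.Sporadic.LeechLocal.neg_ne_self rt_U.2 h1

theorem P_le_C0 : P ≤ C0 := fun _ hg => mem_C0.2 (comm_tO hg).symm

theorem mem_kerO_iff {x : HC} : x ∈ psiO.ker ↔ ∃ p : C0, p.1 ∈ P ∧ piC p = x := by
  constructor
  · intro hx
    obtain ⟨g, rfl⟩ := piC_surj x
    rw [MonoidHom.mem_ker, psiO_pi, psi8_eq_one_iff] at hx
    rcases mem_P_of_MatR g.2 hx with h | h
    · exact ⟨g, h, rfl⟩
    · refine ⟨⟨negCo0 * g.1, h |> P_le_C0⟩, h, ?_⟩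
      apply Subtype.ext
      show mkC (negCo0 * g.1) = mkC g.1
      rw [map_mul, mkC_neg, one_mul]
  · rintro ⟨p, hp, rfl⟩
    rw [MonoidHom.mem_ker, psiO_pi, psi8_eq_one_iff]
    exact MatR_P hp

/-- The kernel is isomorphic with `P`. -/
noncomputable def kerEquiv8 : P ≃* psiO.ker :=
  MulEquiv.ofBijective
    (((piC.comp (Subgroup.inclusion P_le_C0))).codRestrict psiO.ker (fun p =>
      mem_kerO_iff.2 ⟨⟨p.1, P_le_C0 p.2⟩, p.2, rfl⟩))
    (by
      constructor
      · rw [injective_iff_map_eq_one]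
        intro p hp
        have h1 : piC ⟨p.1, P_le_C0 p.2⟩ = 1 := congrArg Subtype.val hp
        rcases piC_eq_one_iff.1 h1 with h2 | h2
        · exact Subtype.ext h2
        · exact absurd (show negCo0 ∈ P from h2 ▸ p.2) neg_not_mem_P
      · rintro ⟨x, hx⟩
        obtain ⟨p, hp, rfl⟩ := mem_kerO_iff.1 hx
        exact ⟨⟨p.1, hp⟩, Subtype.ext rfl⟩)

theorem card_kerO : Nat.card psiO.ker = 2 ^ 9 := by
  rw [← Nat.card_congr kerEquiv8.toEquiv, card_P]

/-! ### Orders -/

theorem card_HC : Nat.card HC = 120 * (2 ^ 9 * 1451520) := by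
  have h1 := Subgroup.card_mul_index piC.ker
  rw [Subgroup.index_ker, MonoidHom.range_eq_top.2 piC_surj, Subgroup.card_top, card_C0] at h1
  have h2 : Nat.card piC.ker = 2 := by
    rw [Nat.card_eq_two_iff]
    refine ⟨1, ⟨⟨negCo0, neg_mem_C0⟩, (MonoidHom.mem_ker).2 (piC_eq_one_iff.2 (Or.inr rfl))⟩, ?_, ?_⟩
    · intro h
      have h3 := congrArg (fun x : piC.ker => (x.1.1 : Co0)) h
      exact negCo0_ne_one h3.symm
    · ext ⟨g, hg⟩
      simp only [Set.mem_insert_iff, Set.mem_singleton_iff, Set.mem_univ, iff_true]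
      rcases piC_eq_one_iff.1 ((MonoidHom.mem_ker).1 hg) with h | h
      · left
        exact Subtype.ext (Subtype.ext h)
      · right
        exact Subtype.ext (Subtype.ext h)
  rw [h2] at h1
  omega

instance finite_HC : Finite HC := Nat.finite_of_card_ne_zero (by rw [card_HC]; norm_num)

theorem card_range : Nat.card psiO.range = 174182400 := by
  have h1 := Subgroup.card_mul_index psiO.ker
  rw [Subgroup.index_ker, card_kerO, card_HC] at h1
  omega

theorem card_O : Nat.card (isometryGroup (ZMod 2) (quadFormPlus 4 (ZMod 2))) = 348364800 := by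
  rw [Cfsg.Agent.S0287.result (F := ZMod 2) (q := 2) (ZMod.card 2) 4 (by norm_num)]
  simp [Finset.prod_range_succ]

theorem card_Om : Nat.card (Omega (ZMod 2) (quadFormPlus 4 (ZMod 2))) = 174182400 := by
  have h := Cfsg.Agent.Lib.PresOm.OmCard.card_Omega (F := ZMod 2) 4 (by norm_num)
  rw [Cfsg.Agent.Lib.PresOm.OmCard.card_neg_one' (by decide), mul_one, ZMod.card] at h
  rw [h]
  simp [Finset.prod_range_succ]

instance finite_O : Finite (isometryGroup (ZMod 2) (quadFormPlus 4 (ZMod 2))) :=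
  Nat.finite_of_card_ne_zero (by rw [card_O]; norm_num)

/-- The range is the commutator subgroup. -/
theorem range_eq : psiO.range = Omega (ZMod 2) (quadFormPlus 4 (ZMod 2)) := by
  have hidx : psiO.range.index = 2 := by
    have h1 := Subgroup.card_mul_index psiO.range
    rw [card_range, card_O] at h1
    omega
  have hle : Omega (ZMod 2) (quadFormPlus 4 (ZMod 2)) ≤ psiO.range := by
    show commutator _ ≤ _
    rw [commutator_def, Subgroup.commutator_le]
    intro a _ b _
    rw [commutatorElement_def]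
    simp only [Subgroup.mul_mem_iff_of_index_two hidx, Subgroup.inv_mem_iff]
    tauto
  symm
  apply Subgroup.eq_of_le_of_card_ge hle
  rw [card_range, card_Om]

/-- The surjection onto `Ω`. -/
noncomputable def psiOm : HC →* Omega (ZMod 2) (quadFormPlus 4 (ZMod 2)) :=
  psiO.codRestrict _ (fun x => by
    rw [← range_eq]
    exact ⟨x, rfl⟩)

theorem psiOm_surj : Function.Surjective psiOm := by
  rintro ⟨y, hy⟩
  rw [← range_eq] at hy
  obtain ⟨x, rfl⟩ := hy
  exact ⟨x, rfl⟩

theorem psiOm_ker : psiOm.ker = psiO.ker := by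
  ext x
  rw [MonoidHom.mem_ker, MonoidHom.mem_ker]
  constructor
  · intro h
    exact congrArg Subtype.val h
  · intro h
    exact Subtype.ext h

end Cfsg.Agent.Lib.Sporadic.Co1Cent.Lift
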