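import Mathlib
import Cfsg.Agent.Lib.Components.FStar
import Cfsg.Agent.Lib.Components.Layer
import Cfsg.Agent.Lib.Sporadic.Co1Cent.Lift

/-!
# The generalized Fitting subgroup of the centraliser of `z` in `Co₁`
-/

set_option autoImplicit false

namespace Cfsg.Agent.Lib.Sporadic.Co1Cent.FStar

open Cfsg Cfsg.Agent.Lib.Sporadic.GolayCore Cfsg.Agent.Lib.Sporadic.LeechBasic
  Cfsg.Agent.Lib.Sporadic.LeechNorm Cfsg.Agent.Lib.Sporadic.LeechFacts
  Cfsg.Agent.Lib.Sporadic.LeechAut Cfsg.Agent.Lib.Sporadic.LeechMat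
  Cfsg.Agent.Lib.Sporadic.LeechKey Cfsg.Agent.Lib.Sporadic.M24Chain
  Cfsg.Agent.Lib.Sporadic.LeechMonomial
  Cfsg.Agent.Lib.Sporadic.Co1Cent.Roots Cfsg.Agent.Lib.Sporadic.Co1Cent.Hom
  Cfsg.Agent.Lib.Sporadic.Co1Cent.Ker Cfsg.Agent.Lib.Sporadic.Co1Cent.Trans
  Cfsg.Agent.Lib.Sporadic.Co1Cent.Lift
  Cfsg.Agent.Lib.Sporadic.Co2Cent.PGrp
open Cfsg.Agent.Lib.Sporadic.Co2Cent.Hom (tO ocM oc_supp)
open Cfsg.Agent.Lib.Sporadic.Co2Cent.Abs (ExCrit)
open Cfsg.Agent.Lib.Sporadic.LeechLocal (mkC mkC_eq_one_iff mkC_neg negCo0_mul_smul)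
open Cfsg.Agent.Lib.Classical.Orth

/-! ### The abstract statement -/

/-- The generalized Fitting subgroup of an extension of a `2`-group by a simple non-abelian group
not centralised by the kernel. -/
theorem fstar_abs {H G : Type} [Group H] [Group G] [Finite H] (hG : IsSimpleGroup G)
    (hperf : commutator G = ⊤) (ψ : H →* G) (hs : Function.Surjective ψ) (hK : IsPGroup 2 ψ.ker)
    (hne : ∃ h : H, ∃ p ∈ ψ.ker, ∀ k ∈ ψ.ker, (h * k) * p * (h * k)⁻¹ ≠ p) :
    generalizedFittingSubgroup H = ψ.ker := by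
  haveI : Fact (Nat.Prime 2) := ⟨Nat.prime_two⟩
  have hnil : Group.IsNilpotent ψ.ker := hK.isNilpotent
  have hfit1 : ψ.ker ≤ fittingSubgroup H := le_sSup ⟨inferInstance, hnil⟩
  have hfit2 : fittingSubgroup H ≤ ψ.ker := by
    apply sSup_le
    rintro N ⟨hN, hn⟩
    have h1 : (N.map ψ).Normal := hN.map _ hs
    have h2 : Group.IsNilpotent ↥(N.map ψ) := by
      let g : ↥N →* ↥(N.map ψ) := (ψ.comp N.subtype).codRestrict _ (fun x => ⟨x.1, x.2, rfl⟩)
      have hg : Function.Surjective g := by
        rintro ⟨_, x, hx, rfl⟩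
        exact ⟨⟨x, hx⟩, rfl⟩
      exact nilpotent_of_surjective g hg
    rcases hG.eq_bot_or_eq_top_of_normal _ h1 with h3 | h3
    · intro x hx
      have h4 : ψ x ∈ N.map ψ := ⟨x, hx, rfl⟩
      rw [h3, Subgroup.mem_bot] at h4
      exact h4
    · exfalso
      rw [h3] at h2
      haveI : Group.IsNilpotent G := (Group.isNilpotent_congr Subgroup.topEquiv).1 h2
      haveI : Nontrivial G := hG.toNontrivial
      exact (IsSolvable.commutator_lt_top_of_nontrivial G).ne hperf
  have hcent : Subgroup.centralizer (ψ.ker : Set H) ≤ ψ.ker := by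
    have hn : ((Subgroup.centralizer (ψ.ker : Set H)).map ψ).Normal := by
      have : (Subgroup.centralizer (ψ.ker : Set H)).Normal := Subgroup.normal_centralizer
      exact this.map _ hs
    rcases hG.eq_bot_or_eq_top_of_normal _ hn with h3 | h3
    · intro x hx
      have h4 : ψ x ∈ (Subgroup.centralizer (ψ.ker : Set H)).map ψ := ⟨x, hx, rfl⟩
      rw [h3, Subgroup.mem_bot] at h4
      exact h4
    · exfalso
      obtain ⟨h, p, hp, hk⟩ := hne
      have h4 : ψ h ∈ (Subgroup.centralizer (ψ.ker : Set H)).map ψ := by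
        rw [h3]
        trivial
      obtain ⟨c, hc, hce⟩ := h4
      have hkk : h⁻¹ * c ∈ ψ.ker := by
        rw [MonoidHom.mem_ker, map_mul, map_inv, hce, inv_mul_cancel]
      apply hk _ hkk
      have h5 : h * (h⁻¹ * c) = c := by group
      rw [h5]
      have h6 := Subgroup.mem_centralizer_iff.1 hc p hp
      rw [← h6]
      group
  apply le_antisymm
  · refine sup_le ?_ hfit2
    refine le_trans ?_ hcent
    rw [← Subgroup.commutator_eq_bot_iff_le_centralizer]
    haveI := hnil
    exact Cfsg.Agent.Lib.Components.Layer.commutator_layer_eq_bot_of_isSolvable inferInstance inferInstance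
  · exact hfit1.trans le_sup_right

/-! ### The simple group -/

theorem neg_one_eq : (-1 : Matrix I8 I8 (ZMod 2)) = 1 := by
  ext i j
  rw [Matrix.neg_apply]
  exact ZMod.neg_eq_self_mod_two _

theorem hnd : (QuadraticMap.polarBilin (Models.plusForm 4 (ZMod 2))).Nondegenerate :=
  Models.plusForm_nondegenerate (F := ZMod 2) 4

theorem hcard8 : 5 ≤ Fintype.card I8 := by simp

theorem commutator_Om : commutator (Omega (ZMod 2) (quadFormPlus 4 (ZMod 2))) = ⊤ := by
  have h := Generation.commutator_omega_eq_top (Q := Models.plusForm 4 (ZMod 2)) hnd hcard8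
  rw [Models.coe_plusForm] at h
  exact h

theorem isSimple_Om : IsSimpleGroup (Omega (ZMod 2) (quadFormPlus 4 (ZMod 2))) := by
  have h1 := Simple.isSimple_POmega (Q := Models.plusForm 4 (ZMod 2)) hnd hcard8
  have h2 := Center.center_eq_bot (Q := Models.plusForm 4 (ZMod 2)) hnd hcard8 (fun g _ hm => by
    apply Subtype.ext
    apply Units.ext
    rw [hm, neg_one_eq]
    rfl)
  rw [Models.coe_plusForm] at h1 h2
  have e : Omega (ZMod 2) (quadFormPlus 4 (ZMod 2)) ≃* POmega (ZMod 2) (quadFormPlus 4 (ZMod 2)) :=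
    (QuotientGroup.quotientBot.symm).trans (QuotientGroup.quotientMulEquivOfEq h2.symm)
  exact e.isSimpleGroup

/-! ### Forms -/

theorem comm_form {y : Co0} {T : List ℕ} {m : ℕ} (hf : Form y T m) (hlt : ∀ i, i < 24 → T.getD i 0 < 24)
    (hc : ∀ i, i < 24 → ocM.testBit (T.getD i 0) = ocM.testBit i) : y ∈ C0 := by
  rw [mem_C0]
  symm
  apply ext_vals
  intro i hi
  rw [mul_form form_tO hf hi (hlt i hi), mul_form hf form_tO hi (by rw [id24_getD hi]; exact hi),
    id24_getD (hlt i hi), id24_getD hi, sg_eq_iff.2 (hc i hi), mul_comm]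

theorem mask0 : ofMask 0 ∈ supports (golayCode : Set (GolayPt → ZMod 2)) :=
  (ofMask_mem_supports_iff (by norm_num)).2 (by decide +kernel)

/-- The element of `Co0` acting by a permutation of the list. -/
noncomputable def monoT (T : List ℕ) (hT : goodT T = true) : Co0 :=
  monoElt ⟨gPerm T hT, gPerm_mem hT⟩ ⟨ofMask 0, mask0⟩

/-- The table of the permutation of the octad. -/
abbrev tS : List ℕ := pT0

theorem tS_lt : ∀ i, i < 24 → tS.getD i 0 < 24 := by decide +kernel

theorem tS_oc : ∀ i, i < 24 → ocM.testBit (tS.getD i 0) = ocM.testBit i := by decide +kernel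

/-- A word disjoint from the octad moved by the permutation. -/
def cW : ℕ := 337856

theorem cW_mem : cW ∈ A32 := by decide +kernel

theorem cW_supp : ofMask cW ∈ supports (golayCode : Set (GolayPt → ZMod 2)) :=
  (ofMask_mem_supports_iff (A32_code cW cW_mem).2.1).2 (A32_code cW cW_mem).1

/-- The permutation moves the word, even modulo the tables of `P`. -/
theorem cW_moved : ∀ T ∈ levelTbl6, ∃ i ∈ List.range 24, cW.testBit i ≠ cW.testBit (tS.getD (T.getD i 0) 0) := by
  decide +kernel

theorem cW_23 : ∀ T ∈ levelTbl6, cW.testBit 23 = cW.testBit (tS.getD (T.getD 23 0) 0) := by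
  decide +kernel

/-- The sign change on the word. -/
noncomputable def eW : Co0 := signCo0 (ofMask cW) cW_supp

theorem form_eW : Form eW id24 cW := form_sign cW_supp

theorem eW_P : eW ∈ P := P_of_form id24_mem cW_mem form_eW

/-- The permutation. -/
noncomputable def gS : Co0 := monoT tS pT0_ok

theorem form_gS : Form gS tS 0 := form_mono pT0_ok tS_lt mask0

theorem gS_C0 : gS ∈ C0 := comm_form form_gS tS_lt tS_oc

theorem eW_smul {i : ℕ} (hi : i < 24) : eW • u8 (pt i) = sg cW i • u8 (pt i) := by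
  have := form_eW i hi
  rwa [id24_getD hi] at this

/-- The element witnessing that the kernel is not centralised. -/
theorem hne_Om : ∃ h : HC, ∃ p ∈ psiOm.ker, ∀ k ∈ psiOm.ker, (h * k) * p * (h * k)⁻¹ ≠ p := by
  refine ⟨piC ⟨gS, gS_C0⟩, piC ⟨eW, P_le_C0 eW_P⟩, ?_, ?_⟩
  · rw [psiOm_ker]
    exact mem_kerO_iff.2 ⟨_, eW_P, rfl⟩
  · intro k hk hcon
    rw [psiOm_ker] at hk
    obtain ⟨q, hq, rfl⟩ := mem_kerO_iff.1 hk
    obtain ⟨T, hT, m, hm, hf⟩ := exists_form hq
    -- lift to `Co0`
    let y : Co0 := gS * q.1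
    have h1 : mkC (y * eW * y⁻¹) = mkC eW := by
      have := congrArg (fun x : HC => (x : Spor.Co1)) hcon
      simp only [Subgroup.coe_mul, Subgroup.coe_inv, coe_piC] at this
      simpa [y, map_mul, map_inv] using this
    have h2 : mkC (y * eW * y⁻¹ * eW⁻¹) = 1 := by
      rw [map_mul, h1, map_inv, mul_inv_cancel]
    have hTlt : ∀ i, i < 24 → T.getD i 0 < 24 := fun i hi => (tbl_lt T hT i (lt_of_mem_range hi)).1
    have hy : ∀ i, i < 24 → y • u8 (pt i) = (sg m (T.getD i 0)) • u8 (pt (tS.getD (T.getD i 0) 0)) := by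
      intro i hi
      show (gS * q.1) • u8 (pt i) = _
      rw [mul_form form_gS hf hi (hTlt i hi), sg_zero, mul_one]
    have hjlt : ∀ i, i < 24 → tS.getD (T.getD i 0) 0 < 24 := fun i hi => tS_lt _ (hTlt i hi)
    have hL : ∀ i, i < 24 → (y * eW) • u8 (pt i) =
        (sg cW i * sg m (T.getD i 0)) • u8 (pt (tS.getD (T.getD i 0) 0)) := by
      intro i hi
      rw [mul_smul, eW_smul hi, co0_map_zsmul, hy i hi, smul_smul]
    have hR : ∀ i, i < 24 → (eW * y) • u8 (pt i) =
        (sg m (T.getD i 0) * sg cW (tS.getD (T.getD i 0) 0)) • u8 (pt (tS.getD (T.getD i 0) 0)) := by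
      intro i hi
      rw [mul_smul, hy i hi, co0_map_zsmul, eW_smul (hjlt i hi), smul_smul]
    have hsg : ∀ {a b : ℤ}, (a = 1 ∨ a = -1) → ∀ {p q : ℤ}, a * p = a * q → p = q := by
      intro a b ha p q h
      rcases ha with rfl | rfl <;> omega
    rcases (mkC_eq_one_iff _).1 h2 with h3 | h3
    · -- `y` commutes with the sign change
      have h4 : y * eW = eW * y := by
        have := mul_inv_eq_one.1 h3
        calc y * eW = y * eW * y⁻¹ * y := by group
          _ = eW * y := by rw [this]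
      obtain ⟨i, hi, h5⟩ := cW_moved T hT
      have hi' := List.mem_range.1 hi
      apply h5
      have h6 := hL i hi'
      rw [h4, hR i hi'] at h6
      have h7 := (smul_u8_inj (by
        rcases sg_cases m (T.getD i 0) with h8 | h8 <;> rcases sg_cases cW (tS.getD (T.getD i 0) 0) with h9 | h9 <;>
          rw [h8, h9] <;> norm_num) h6).2
      rw [mul_comm (sg cW i)] at h7
      have h8 := hsg (b := 0) (sg_cases m (T.getD i 0)) h7
      exact (sg_eq_iff.1 h8).symm
    · -- the other sign does not occur on the octad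
      have h4 : y * eW = negCo0 * (eW * y) := by
        have := mul_inv_eq_iff_eq_mul.1 h3
        calc y * eW = y * eW * y⁻¹ * y := by group
          _ = negCo0 * eW * y := by rw [this]
          _ = negCo0 * (eW * y) := by group
      have h6 := hL 23 (by norm_num)
      rw [h4, negCo0_mul_smul, hR 23 (by norm_num), ← neg_smul] at h6
      have h7 := (smul_u8_inj (by
        rcases sg_cases m (T.getD 23 0) with h8 | h8 <;> rcases sg_cases cW (tS.getD (T.getD 23 0) 0) with h9 | h9 <;>
          rw [h8, h9] <;> norm_num) h6).2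
      have h8 := sg_eq_iff.2 (cW_23 T hT)
      rw [h8] at h7
      rcases sg_cases m (T.getD 23 0) with h9 | h9 <;> rcases sg_cases cW (tS.getD (T.getD 23 0) 0) with h10 | h10 <;>
        rw [h9, h10] at h7 <;> norm_num at h7

/-- The generalized Fitting subgroup of the centraliser. -/
theorem fstar_HC : generalizedFittingSubgroup HC = psiO.ker := by
  rw [← psiOm_ker]
  refine fstar_abs isSimple_Om commutator_Om psiOm psiOm_surj ?_ hne_Om
  rw [psiOm_ker]
  exact IsPGroup.of_card card_kerO

/-- The kernel is extraspecial. -/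
theorem extra_ker : IsExtraspecial 2 psiO.ker := by
  haveI : Finite psiO.ker := Nat.finite_of_card_ne_zero (by rw [card_kerO]; norm_num)
  exact Cfsg.Agent.Lib.Sporadic.Co2Cent.Abs.ExCrit.isExtraspecial (IsPGroup.of_card card_kerO)
    (exCrit_P.of_equiv kerEquiv8)

/-- The quotient. -/
theorem quot_ker : Nonempty (HC ⧸ psiO.ker ≃* Omega (ZMod 2) (quadFormPlus 4 (ZMod 2))) :=
  ⟨(QuotientGroup.quotientMulEquivOfEq psiOm_ker.symm).trans
    (QuotientGroup.quotientKerEquivOfSurjective psiOm psiOm_surj)⟩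

/-! ### A conjugate of `z` in the kernel -/

/-- The table moving the octad to a disjoint octad. -/
def tD : List ℕ := [9, 21, 4, 8, 16, 11, 18, 6, 17, 22, 20, 19, 12, 3, 13, 1, 14, 15, 2, 5, 0, 23, 10, 7]

theorem tD_ok : goodT tD = true := by decide +kernel

theorem tD_lt : ∀ i, i < 24 → tD.getD i 0 < 24 := by decide +kernel

/-- The mask of the octad. -/
def mD : ℕ := 2141072

theorem mD_mem : mD ∈ A32 := by decide +kernel

theorem mD_supp : ofMask mD ∈ supports (golayCode : Set (GolayPt → ZMod 2)) :=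
  (ofMask_mem_supports_iff (A32_code mD mD_mem).2.1).2 (A32_code mD mD_mem).1

theorem tD_bits : ∀ i, i < 24 → (ocM.testBit i != mD.testBit (tD.getD i 0)) = true := by decide +kernel

/-- The conjugating element. -/
noncomputable def gD : Co0 := monoT tD tD_ok

theorem form_gD : Form gD tD 0 := form_mono tD_ok tD_lt mask0

/-- The sign change on the octad. -/
noncomputable def eD : Co0 := signCo0 (ofMask mD) mD_supp

theorem form_eD : Form eD id24 mD := form_sign mD_supp

theorem eD_P : eD ∈ P := P_of_form id24_mem mD_mem form_eD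

theorem conj_gD : gD * tO = negCo0 * (eD * gD) := by
  apply ext_vals
  intro i hi
  have hlt := tD_lt i hi
  rw [mul_form form_gD form_tO hi (by rw [id24_getD hi]; exact hi), negCo0_mul_smul,
    mul_form form_eD form_gD hi hlt, id24_getD hi, id24_getD hlt, sg_zero, ← neg_smul]
  congr 1
  have h := tD_bits i hi
  unfold sg
  cases h1 : ocM.testBit i <;> cases h2 : mD.testBit (tD.getD i 0) <;> simp_all

theorem mkC_conj : mkC gD * zC * (mkC gD)⁻¹ = mkC eD := by
  unfold zC
  rw [← map_mul, ← map_inv, ← map_mul, conj_gD]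
  have e : negCo0 * (eD * gD) * gD⁻¹ = negCo0 * eD := by group
  rw [e, map_mul, mkC_neg, one_mul]

theorem eD_ne : mkC eD ≠ zC := by
  intro h
  have h1 : mkC (eD * tO⁻¹) = 1 := by
    rw [map_mul, map_inv, h]
    unfold zC
    rw [mul_inv_cancel]
  rcases (mkC_eq_one_iff _).1 h1 with h2 | h2
  · have h3 := mul_inv_eq_one.1 h2
    have h4 := form_eD 6 (by norm_num)
    rw [h3, form_tO 6 (by norm_num), id24_getD (by norm_num)] at h4
    have h5 := (smul_u8_inj (sg_cases _ _) h4).2
    revert h5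
    decide
  · have h3 := mul_inv_eq_iff_eq_mul.1 h2
    have h4 := form_eD 23 (by norm_num)
    rw [h3, negCo0_mul_smul, form_tO 23 (by norm_num), id24_getD (by norm_num), ← neg_smul] at h4
    have h5 := (smul_u8_inj (by decide) h4).2
    revert h5
    decide

end Cfsg.Agent.Lib.Sporadic.Co1Cent.FStar
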